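import Mathlib
import Cfsg.Prelude.Def_Solvable
import Cfsg.Agent.S0228
import Cfsg.Agent.H812.Prod

/-!
# Involutions with centralizer `2² × A₅` permuted by an element of order 3 (helper812)

`Dat t V H`: `C(t) = V × H`, `H ≅ A₅`, `V` a four-group, all of whose involutions have the same centralizer, and an element
`d` of order 3 centralises `H` and permutes the involutions of `V`. Then `O₂(C(t)) = V` and `N(V) ≅ A₄ × A₅`.
-/

set_option autoImplicit false

namespace Cfsg.Agent.H812.FourA5

open Subgroup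

variable {G : Type*} [Group G]

structure Dat (t : G) (V H : Subgroup G) : Prop where
  mem : t ∈ V
  ne : t ≠ 1
  card : Nat.card V = 4
  sq : ∀ v ∈ V, v * v = 1
  comm : ∀ v ∈ V, ∀ x ∈ H, v * x = x * v
  alt : Nonempty (H ≃* alternatingGroup (Fin 5))
  cent : ∀ x, x ∈ centralizer ({t} : Set G) ↔ ∃ a ∈ V, ∃ b ∈ H, x = a * b
  centV : ∀ v ∈ V, v ≠ 1 → centralizer ({v} : Set G) = centralizer ({t} : Set G)
  inf : ∀ x ∈ V, x ∈ H → x = 1
  d : ∃ d, orderOf d = 3 ∧ (∀ x ∈ H, d * x = x * d) ∧ (∀ v ∈ V, d * v * d⁻¹ ∈ V) ∧ d * t ≠ t * d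

theorem mem_cent_conj {g t x : G} :
    x ∈ centralizer ({g * t * g⁻¹} : Set G) ↔ g⁻¹ * x * g ∈ centralizer ({t} : Set G) := by
  rw [mem_centralizer_singleton_iff, mem_centralizer_singleton_iff]
  constructor
  · intro h
    calc g⁻¹ * x * g * t = g⁻¹ * (x * (g * t * g⁻¹)) * g := by group
      _ = t * (g⁻¹ * x * g) := by rw [h]; group
  · intro h
    calc x * (g * t * g⁻¹) = g * (g⁻¹ * x * g * t) * g⁻¹ := by group
      _ = g * t * g⁻¹ * x := by rw [h]; group

theorem mem_map_conj {g x : G} {A : Subgroup G} :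
    x ∈ A.map (MulAut.conj g).toMonoidHom ↔ g⁻¹ * x * g ∈ A := by
  rw [mem_map]
  constructor
  · rintro ⟨y, hy, rfl⟩
    have : g⁻¹ * ((MulAut.conj g).toMonoidHom y) * g = y := by
      show g⁻¹ * (g * y * g⁻¹) * g = y
      group
    rw [this]; exact hy
  · intro h
    refine ⟨_, h, ?_⟩
    show g * (g⁻¹ * x * g) * g⁻¹ = x
    group

variable {t : G} {V H : Subgroup G}

theorem Dat.conj (h : Dat t V H) (g : G) :
    Dat (g * t * g⁻¹) (V.map (MulAut.conj g).toMonoidHom) (H.map (MulAut.conj g).toMonoidHom) where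
  mem := by
    rw [mem_map_conj]
    have : g⁻¹ * (g * t * g⁻¹) * g = t := by group
    rw [this]; exact h.mem
  ne := by
    intro h1
    apply h.ne
    calc t = g⁻¹ * (g * t * g⁻¹) * g := by group
      _ = 1 := by rw [h1]; group
  card := by
    rw [← h.card]
    exact (Nat.card_congr (V.equivMapOfInjective _ (MulAut.conj g).injective).toEquiv).symm
  sq := by
    intro v hv
    rw [mem_map_conj] at hv
    have := h.sq _ hv
    calc v * v = g * ((g⁻¹ * v * g) * (g⁻¹ * v * g)) * g⁻¹ := by group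
      _ = 1 := by rw [this]; group
  comm := by
    intro v hv x hx
    rw [mem_map_conj] at hv hx
    have := h.comm _ hv _ hx
    calc v * x = g * ((g⁻¹ * v * g) * (g⁻¹ * x * g)) * g⁻¹ := by group
      _ = x * v := by rw [this]; group
  alt := by
    obtain ⟨e⟩ := h.alt
    exact ⟨(H.equivMapOfInjective _ (MulAut.conj g).injective).symm.trans e⟩
  cent := by
    intro x
    rw [mem_cent_conj, h.cent]
    constructor
    · rintro ⟨a, ha, b, hb, hab⟩
      refine ⟨g * a * g⁻¹, ?_, g * b * g⁻¹, ?_, ?_⟩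
      · rw [mem_map_conj]; convert ha using 1; group
      · rw [mem_map_conj]; convert hb using 1; group
      · calc x = g * (g⁻¹ * x * g) * g⁻¹ := by group
          _ = g * a * g⁻¹ * (g * b * g⁻¹) := by rw [hab]; group
    · rintro ⟨a, ha, b, hb, rfl⟩
      rw [mem_map_conj] at ha hb
      exact ⟨_, ha, _, hb, by group⟩
  centV := by
    intro v hv hv1
    rw [mem_map_conj] at hv
    have h1 : g⁻¹ * v * g ≠ 1 := by
      intro h2
      apply hv1
      calc v = g * (g⁻¹ * v * g) * g⁻¹ := by group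
        _ = 1 := by rw [h2]; group
    have h2 := h.centV _ hv h1
    have h3 : v = g * (g⁻¹ * v * g) * g⁻¹ := by group
    ext x
    rw [h3, mem_cent_conj, mem_cent_conj, h2]
  inf := by
    intro x hx hx'
    rw [mem_map_conj] at hx hx'
    have := h.inf _ hx hx'
    calc x = g * (g⁻¹ * x * g) * g⁻¹ := by group
      _ = 1 := by rw [this]; group
  d := by
    obtain ⟨d, h1, h2, h3, h4⟩ := h.d
    refine ⟨g * d * g⁻¹, ?_, ?_, ?_, ?_⟩
    · rw [← h1]
      exact (MulAut.conj g).orderOf_eq d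
    · intro x hx
      rw [mem_map_conj] at hx
      have := h2 _ hx
      calc g * d * g⁻¹ * x = g * (d * (g⁻¹ * x * g)) * g⁻¹ := by group
        _ = x * (g * d * g⁻¹) := by rw [this]; group
    · intro v hv
      rw [mem_map_conj] at hv ⊢
      convert h3 _ hv using 1
      group
    · intro h5
      apply h4
      calc d * t = g⁻¹ * (g * d * g⁻¹ * (g * t * g⁻¹)) * g := by group
        _ = t * d := by rw [h5]; group

/-- `C(t) ≅ 2² × A₅`. -/
theorem Dat.equiv_cent (h : Dat t V H) :
    Nonempty (↥(centralizer ({t} : Set G)) ≃*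
      (Multiplicative (ZMod 2) × Multiplicative (ZMod 2)) × alternatingGroup (Fin 5)) := by
  obtain ⟨e⟩ := Prod.equiv_prod V H _ h.comm h.inf h.cent
  obtain ⟨e1⟩ := Prod.equiv_klein V h.card (fun v => Subtype.ext (h.sq v v.2))
  obtain ⟨e2⟩ := h.alt
  exact ⟨e.trans (MulEquiv.prodCongr e1 e2)⟩

theorem a5_center : ∀ x : alternatingGroup (Fin 5), (∀ y, x * y = y * x) → x = 1 := by
  decide +kernel

theorem Dat.center_H (h : Dat t V H) {x : G} (hx : x ∈ H) (hc : ∀ y ∈ H, x * y = y * x) : x = 1 := by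
  obtain ⟨e⟩ := h.alt
  have h1 : e ⟨x, hx⟩ = 1 := by
    apply a5_center
    intro y
    apply e.symm.injective
    rw [map_mul, map_mul, MulEquiv.symm_apply_apply]
    exact Subtype.ext (hc _ (e.symm y).2)
  have h2 : (⟨x, hx⟩ : H) = 1 := by
    apply e.injective
    rw [h1, map_one]
  exact congrArg Subtype.val h2

theorem a5_simple : IsSimpleGroup (alternatingGroup (Fin 5)) :=
  alternatingGroup.isSimpleGroup (by simp)

/-- `O₂(C(t)) = V`. -/
theorem Dat.pCore_eq [Finite G] (h : Dat t V H) :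
    (Cfsg.pCore 2 ↥(centralizer ({t} : Set G))).map (centralizer ({t} : Set G)).subtype = V := by
  have hVle : V ≤ centralizer ({t} : Set G) := fun v hv =>
    (h.cent v).mpr ⟨v, hv, 1, H.one_mem, (mul_one v).symm⟩
  have hHle : H ≤ centralizer ({t} : Set G) := fun v hv =>
    (h.cent v).mpr ⟨1, V.one_mem, v, hv, (one_mul v).symm⟩
  have hVcomm : ∀ a ∈ V, ∀ b ∈ V, a * b = b * a := by
    intro a ha b hb
    have h1 := h.sq _ (V.mul_mem ha hb)
    have h2 := h.sq _ ha
    have h3 := h.sq _ hb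
    have : a * b = (a * b)⁻¹ := eq_inv_of_mul_eq_one_left h1
    rw [this, mul_inv_rev, ← eq_inv_of_mul_eq_one_left h2, ← eq_inv_of_mul_eq_one_left h3]
  apply le_antisymm
  · rw [map_le_iff_le_comap]
    refine sSup_le ?_
    rintro N ⟨hN, hp⟩
    -- `N ⊓ H` is trivial
    have hcap : ∀ x ∈ N, (x : G) ∈ H → x = 1 := by
      obtain ⟨e⟩ := h.alt
      let NH : Subgroup H := (N.map (centralizer ({t} : Set G)).subtype).subgroupOf H
      have hNH : NH.Normal := by
        refine ⟨fun n hn k => ?_⟩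
        rw [mem_subgroupOf, mem_map] at hn ⊢
        obtain ⟨y, hy, hyn⟩ := hn
        refine ⟨⟨(k : G), hHle k.2⟩ * y * ⟨(k : G), hHle k.2⟩⁻¹, hN.conj_mem y hy _, ?_⟩
        rw [map_mul, map_mul, map_inv, hyn]
        rfl
      have hs : IsSimpleGroup H := by
        have := a5_simple
        exact e.isSimpleGroup
      rcases hs.eq_bot_or_eq_top_of_normal NH hNH with h1 | h1
      · intro x hx hxH
        have h2 : (⟨x, hxH⟩ : H) ∈ NH := by
          rw [mem_subgroupOf, mem_map]
          exact ⟨x, hx, rfl⟩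
        rw [h1, mem_bot] at h2
        have h3 : (x : G) = 1 := congrArg Subtype.val h2
        exact Subtype.ext h3
      · exfalso
        -- an element of order 3 of `H`
        have h60 : Nat.card H = 60 := by
          rw [Nat.card_congr e.toEquiv, Nat.card_eq_fintype_card]
          decide +kernel
        have : Fact (Nat.Prime 3) := ⟨by norm_num⟩
        obtain ⟨x, hx⟩ := exists_prime_orderOf_dvd_card' (G := H) 3 (by rw [h60]; norm_num)
        have h2 : x ∈ NH := by rw [h1]; trivial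
        rw [mem_subgroupOf, mem_map] at h2
        obtain ⟨y, hy, hyx⟩ := h2
        obtain ⟨k, hk⟩ := hp ⟨y, hy⟩
        have h3 : orderOf y = 3 := by
          rw [← hx, ← orderOf_coe x, ← hyx]
          exact (orderOf_coe y).symm
        have h4 : y ^ 2 ^ k = 1 := congrArg Subtype.val hk
        have h5 : orderOf y ∣ 2 ^ k := orderOf_dvd_of_pow_eq_one h4
        rw [h3] at h5
        have h6 := (Nat.prime_three.dvd_of_dvd_pow h5)
        norm_num at h6
    intro x hx
    rw [mem_comap]
    obtain ⟨a, ha, b, hb, hab⟩ := (h.cent x).mp x.2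
    have hb1 : b = 1 := by
      apply h.center_H hb
      intro y hy
      -- `[x, y] ∈ N ⊓ H`
      let y' : centralizer ({t} : Set G) := ⟨y, hHle hy⟩
      have h1 : x * (y' * x⁻¹ * y'⁻¹) ∈ N :=
        N.mul_mem hx (hN.conj_mem _ (N.inv_mem hx) y')
      have h2 : ((x * (y' * x⁻¹ * y'⁻¹) : centralizer ({t} : Set G)) : G) = b * y * b⁻¹ * y⁻¹ := by
        show (x : G) * (y * (x : G)⁻¹ * y⁻¹) = _
        have hx' : (x : G) = a * b := hab
        have hay := h.comm a ha y hy
        have haby := h.comm a ha (b * y * b⁻¹) (H.mul_mem (H.mul_mem hb hy) (H.inv_mem hb))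
        rw [hx']
        calc a * b * (y * (a * b)⁻¹ * y⁻¹) = (a * (b * y * b⁻¹)) * a⁻¹ * y⁻¹ := by group
          _ = b * y * b⁻¹ * y⁻¹ := by rw [haby]; group
      have h3 := hcap _ h1 (by
        rw [h2]
        exact H.mul_mem (H.mul_mem (H.mul_mem hb hy) (H.inv_mem hb)) (H.inv_mem hy))
      have h4 : b * y * b⁻¹ * y⁻¹ = 1 := by
        rw [← h2, h3]; rfl
      calc b * y = (b * y * b⁻¹ * y⁻¹) * (y * b) := by group
        _ = y * b := by rw [h4, one_mul]
    show (x : G) ∈ V
    have hx' : (x : G) = a * b := hab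
    rw [hx', hb1, mul_one]
    exact ha
  · intro v hv
    rw [mem_map]
    refine ⟨⟨v, hVle hv⟩, ?_, rfl⟩
    have hN : (V.subgroupOf (centralizer ({t} : Set G))).Normal := by
      refine ⟨fun n hn k => ?_⟩
      rw [mem_subgroupOf] at hn ⊢
      obtain ⟨a, ha, b, hb, hab⟩ := (h.cent k).mp k.2
      show (k : G) * n * (k : G)⁻¹ ∈ V
      have hk' : (k : G) = a * b := hab
      have h1 := h.comm _ hn b hb
      have h2 : (k : G) * n * (k : G)⁻¹ = n := by
        rw [hk']
        calc a * b * n * (a * b)⁻¹ = a * (b * n) * b⁻¹ * a⁻¹ := by group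
          _ = a * n * a⁻¹ := by rw [← h1]; group
          _ = n := by rw [hVcomm a ha _ hn]; group
      rw [h2]; exact hn
    have hP : IsPGroup 2 (V.subgroupOf (centralizer ({t} : Set G))) := by
      intro x
      refine ⟨1, ?_⟩
      have hx : ((x : centralizer ({t} : Set G)) : G) ∈ V := x.2
      apply Subtype.ext
      apply Subtype.ext
      show ((x : centralizer ({t} : Set G)) : G) ^ 2 ^ 1 = 1
      rw [pow_one, pow_two]
      exact h.sq _ hx
    exact le_sSup (show V.subgroupOf (centralizer ({t} : Set G)) ∈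
      {N : Subgroup (centralizer ({t} : Set G)) | N.Normal ∧ IsPGroup 2 N} from ⟨hN, hP⟩)
      (mem_subgroupOf.mpr hv)

/-- `N(V) ≅ A₄ × A₅`. -/
theorem Dat.equiv_normalizer [Finite G] (h : Dat t V H) :
    Nonempty (↥(normalizer (V : Set G)) ≃* alternatingGroup (Fin 4) × alternatingGroup (Fin 5)) := by
  classical
  obtain ⟨d, hd3, hdH, hdV, hdt⟩ := h.d
  have hdd : d ^ 3 = 1 := by rw [← hd3]; exact pow_orderOf_eq_one d
  have hdVi : ∀ v ∈ V, d⁻¹ * v * d ∈ V := by
    intro v hv
    have h1 : d⁻¹ = d ^ 2 := by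
      rw [eq_comm, ← mul_eq_one_iff_eq_inv, ← pow_succ, hdd]
    have h2 : d⁻¹ * v * d = d * (d * v * d⁻¹) * d⁻¹ := by
      have h3 : d = (d ^ 2)⁻¹ := by rw [← h1, inv_inv]
      calc d⁻¹ * v * d = d ^ 2 * v * (d ^ 2)⁻¹ := by rw [h1, ← h3]
        _ = d * (d * v * d⁻¹) * d⁻¹ := by rw [pow_two]; group
    rw [h2]
    exact hdV _ (hdV _ hv)
  -- the three involutions
  let F : Fin 3 → G := fun i => d ^ (i : ℕ) * t * (d ^ (i : ℕ))⁻¹
  have hFV : ∀ i, F i ∈ V := by
    intro i
    have : ∀ n : ℕ, d ^ n * t * (d ^ n)⁻¹ ∈ V := by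
      intro n
      induction n with
      | zero => simpa using h.mem
      | succ n ih =>
        have := hdV _ ih
        convert this using 1
        rw [pow_succ']; group
    exact this i
  have hF1 : ∀ i, F i ≠ 1 := by
    intro i h1
    apply h.ne
    calc t = (d ^ (i : ℕ))⁻¹ * F i * d ^ (i : ℕ) := by simp only [F]; group
      _ = 1 := by rw [h1]; group
  have hcomm_pow : ∀ n : ℕ, d ^ n * t * (d ^ n)⁻¹ = t → n % 3 = 0 := by
    intro n hn
    by_contra hne
    apply hdt
    have h1 : Commute (d ^ n) t := by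
      show d ^ n * t = t * d ^ n
      calc d ^ n * t = (d ^ n * t * (d ^ n)⁻¹) * d ^ n := by group
        _ = t * d ^ n := by rw [hn]
    have h2 : ∃ m : ℕ, (d ^ n) ^ m = d := by
      have h3 : n % 3 = 1 ∨ n % 3 = 2 := by omega
      rcases h3 with h3 | h3
      · refine ⟨1, ?_⟩
        rw [pow_one, ← Nat.div_add_mod n 3, h3, pow_add, pow_mul, hdd, one_pow, one_mul, pow_one]
      · refine ⟨2, ?_⟩
        rw [← pow_mul]
        have : n * 2 = 3 * (2 * (n / 3) + 1) + 1 := by omega
        rw [this, pow_add, pow_mul, hdd, one_pow, one_mul, pow_one]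
    obtain ⟨m, hm⟩ := h2
    have h3 : Commute ((d ^ n) ^ m) t := h1.pow_left m
    rw [hm] at h3
    exact h3
  have hFinj : Function.Injective F := by
    intro i j hij
    by_contra hne
    wlog hlt : i < j generalizing i j with H1
    · exact H1 hij.symm (fun h => hne h.symm) (lt_of_le_of_ne (not_lt.mp hlt) (fun h => hne h.symm))
    have h1 : d ^ ((j : ℕ) - i) * t * (d ^ ((j : ℕ) - i))⁻¹ = t := by
      have h2 : d ^ (j : ℕ) = d ^ (i : ℕ) * d ^ ((j : ℕ) - i) := by
        rw [← pow_add]; congr 1; have : (i : ℕ) < j := hlt; omega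
      have h3 : F j = d ^ (i : ℕ) * (d ^ ((j : ℕ) - i) * t * (d ^ ((j : ℕ) - i))⁻¹) * (d ^ (i : ℕ))⁻¹ := by
        simp only [F]; rw [h2]; group
      calc d ^ ((j : ℕ) - i) * t * (d ^ ((j : ℕ) - i))⁻¹ = (d ^ (i : ℕ))⁻¹ * F j * d ^ (i : ℕ) := by
            rw [h3]; group
        _ = (d ^ (i : ℕ))⁻¹ * F i * d ^ (i : ℕ) := by rw [hij]
        _ = t := by simp only [F]; group
    have h2 := hcomm_pow _ h1
    have h3 : (i : ℕ) < j := hlt
    have h4 := j.2
    omega
  have hFsurj : ∀ v ∈ V, v ≠ 1 → ∃ i, F i = v := by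
    intro v hv hv1
    have hfin : Fintype V := Fintype.ofFinite V
    let F' : Fin 3 → {x : V // x ≠ 1} := fun i => ⟨⟨F i, hFV i⟩, fun h1 => hF1 i (congrArg Subtype.val h1)⟩
    have hF'inj : Function.Injective F' := by
      intro i j hij
      exact hFinj (congrArg (fun x : {x : V // x ≠ 1} => ((x : V) : G)) hij)
    have hcard : Nat.card {x : V // x ≠ 1} = 3 := by
      have h1 : Nat.card {x : V // x ≠ 1} = Nat.card V - 1 := by
        rw [Nat.card_eq_fintype_card, Nat.card_eq_fintype_card, Fintype.card_subtype_compl]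
        simp
      rw [h1, h.card]
    have hbij : Function.Bijective F' := by
      refine (Nat.bijective_iff_injective_and_card F').mpr ⟨hF'inj, ?_⟩
      rw [hcard, Nat.card_eq_fintype_card, Fintype.card_fin]
    obtain ⟨i, hi⟩ := hbij.2 ⟨⟨v, hv⟩, fun h1 => hv1 (congrArg Subtype.val h1)⟩
    exact ⟨i, congrArg (fun x : {x : V // x ≠ 1} => ((x : V) : G)) hi⟩
  let W : Subgroup G := normalizer (V : Set G) ⊓ centralizer (H : Set G)
  have hdN : ∀ n : ℕ, d ^ n ∈ W := by
    intro n
    refine W.pow_mem (mem_inf.mpr ⟨?_, ?_⟩) n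
    · rw [mem_normalizer_iff]
      intro x
      constructor
      · intro hx; exact hdV x hx
      · intro hx
        have := hdVi _ hx
        convert this using 1
        group
    · rw [mem_centralizer_iff]
      intro x hx
      exact (hdH x hx).symm
  have hVN : V ≤ W := by
    intro v hv
    refine mem_inf.mpr ⟨?_, ?_⟩
    · exact le_normalizer hv
    · rw [mem_centralizer_iff]
      intro x hx
      exact (h.comm v hv x hx).symm
  have hWV : ∀ x ∈ W, x * t = t * x → x ∈ V := by
    intro x hxW hxt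
    have hxH := (mem_inf.mp hxW).2
    rw [mem_centralizer_iff] at hxH
    obtain ⟨a, ha, b, hb, rfl⟩ := (h.cent x).mp (mem_centralizer_singleton_iff.mpr hxt)
    have hb1 : b = 1 := by
      apply h.center_H hb
      intro y hy
      have h1 := hxH y hy
      have h2 := h.comm a ha y hy
      have h3 : a * (b * y) = a * (y * b) := by
        calc a * (b * y) = a * b * y := by group
          _ = y * (a * b) := h1.symm
          _ = (y * a) * b := by group
          _ = a * (y * b) := by rw [← h2]; group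
      exact mul_left_cancel h3
    rw [hb1, mul_one]; exact ha
  have hconjW : ∀ x, x ∈ normalizer (V : Set G) → ∃ i : Fin 3, x * t * x⁻¹ = F i := by
    intro x hx
    rw [mem_normalizer_iff] at hx
    have h1 := (hx t).mp h.mem
    have h2 : x * t * x⁻¹ ≠ 1 := by
      intro h3
      apply h.ne
      calc t = x⁻¹ * (x * t * x⁻¹) * x := by group
        _ = 1 := by rw [h3]; group
    obtain ⟨i, hi⟩ := hFsurj _ h1 h2
    exact ⟨i, hi.symm⟩
  have hback : ∀ (x : G) (i : Fin 3), x * t * x⁻¹ = F i → ((d ^ (i : ℕ))⁻¹ * x) * t = t * ((d ^ (i : ℕ))⁻¹ * x) := by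
    intro x i hi
    calc ((d ^ (i : ℕ))⁻¹ * x) * t = (d ^ (i : ℕ))⁻¹ * (x * t * x⁻¹) * x := by group
      _ = t * ((d ^ (i : ℕ))⁻¹ * x) := by rw [hi]; simp only [F]; group
  have hcardW : Nat.card W = 12 := by
    let Φ : Fin 3 × V → W := fun p => ⟨d ^ (p.1 : ℕ) * p.2, W.mul_mem (hdN _) (hVN p.2.2)⟩
    have hVcomm : ∀ a ∈ V, ∀ b ∈ V, a * b = b * a := by
      intro a ha b hb
      have h1 := h.sq _ (V.mul_mem ha hb)
      have h2 := h.sq _ ha
      have h3 := h.sq _ hb
      have : a * b = (a * b)⁻¹ := eq_inv_of_mul_eq_one_left h1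
      rw [this, mul_inv_rev, ← eq_inv_of_mul_eq_one_left h2, ← eq_inv_of_mul_eq_one_left h3]
    have hΦ : Function.Bijective Φ := by
      constructor
      · rintro ⟨i, a⟩ ⟨j, b⟩ hab
        have h1 : d ^ (i : ℕ) * (a : G) = d ^ (j : ℕ) * (b : G) := congrArg Subtype.val hab
        have h2 : F i = F j := by
          calc F i = d ^ (i : ℕ) * (a * t) * (a : G)⁻¹ * (d ^ (i : ℕ))⁻¹ := by
                rw [hVcomm a a.2 t h.mem]; simp only [F]; group
            _ = (d ^ (i : ℕ) * a) * t * (d ^ (i : ℕ) * a)⁻¹ := by group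
            _ = (d ^ (j : ℕ) * b) * t * (d ^ (j : ℕ) * b)⁻¹ := by rw [h1]
            _ = d ^ (j : ℕ) * (b * t) * (b : G)⁻¹ * (d ^ (j : ℕ))⁻¹ := by group
            _ = F j := by rw [hVcomm b b.2 t h.mem]; simp only [F]; group
        have h3 := hFinj h2
        subst h3
        exact Prod.ext rfl (Subtype.ext (mul_left_cancel h1))
      · rintro ⟨x, hx⟩
        obtain ⟨i, hi⟩ := hconjW x hx.1
        have h1 := hWV ((d ^ (i : ℕ))⁻¹ * x) (W.mul_mem (W.inv_mem (hdN _)) hx) (hback x i hi)
        refine ⟨(i, ⟨_, h1⟩), Subtype.ext ?_⟩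
        show d ^ (i : ℕ) * ((d ^ (i : ℕ))⁻¹ * x) = x
        group
    rw [← Nat.card_congr (Equiv.ofBijective Φ hΦ), Nat.card_prod, h.card, Nat.card_eq_fintype_card,
      Fintype.card_fin]
  have hW4 : Nonempty (W ≃* alternatingGroup (Fin 4)) := by
    apply Cfsg.Agent.S0228.result hcardW
    intro z hz hzc
    rw [mem_center_iff] at hzc
    have h1 : (z : G) * t = t * z := (congrArg Subtype.val (hzc ⟨t, hVN h.mem⟩)).symm
    have h2 := hWV z z.2 h1
    have h3 : (z : G) ≠ 1 := by
      intro h4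
      have : z = 1 := Subtype.ext h4
      rw [this, orderOf_one] at hz
      norm_num at hz
    obtain ⟨i, hi⟩ := hFsurj _ h2 h3
    have h4 : d * (z : G) = z * d := by
      have := congrArg Subtype.val (hzc ⟨d, by simpa using hdN 1⟩)
      exact this
    apply hdt
    rw [← hi] at h4
    calc d * t = (d ^ (i : ℕ))⁻¹ * (d * F i) * d ^ (i : ℕ) := by
          simp only [F]
          have : (d ^ (i : ℕ))⁻¹ * d = d * (d ^ (i : ℕ))⁻¹ := by
            have := (Commute.refl d).pow_left (i : ℕ)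
            exact (this.inv_left).eq
          calc d * t = d * (d ^ (i : ℕ))⁻¹ * (d ^ (i : ℕ) * t * (d ^ (i : ℕ))⁻¹) * d ^ (i : ℕ) := by group
            _ = (d ^ (i : ℕ))⁻¹ * d * (d ^ (i : ℕ) * t * (d ^ (i : ℕ))⁻¹) * d ^ (i : ℕ) := by rw [this]
            _ = (d ^ (i : ℕ))⁻¹ * (d * (d ^ (i : ℕ) * t * (d ^ (i : ℕ))⁻¹)) * d ^ (i : ℕ) := by group
      _ = (d ^ (i : ℕ))⁻¹ * (F i * d) * d ^ (i : ℕ) := by rw [h4]
      _ = t * d := by
          simp only [F]
          have : d * d ^ (i : ℕ) = d ^ (i : ℕ) * d := by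
            exact ((Commute.refl d).pow_right (i : ℕ)).eq
          calc (d ^ (i : ℕ))⁻¹ * (d ^ (i : ℕ) * t * (d ^ (i : ℕ))⁻¹ * d) * d ^ (i : ℕ)
              = t * (d ^ (i : ℕ))⁻¹ * (d * d ^ (i : ℕ)) := by group
            _ = t * d := by rw [this]; group
  obtain ⟨e1⟩ := hW4
  obtain ⟨e2⟩ := h.alt
  obtain ⟨e⟩ := Prod.equiv_prod W H (normalizer (V : Set G))
    (fun a ha b hb => ((mem_centralizer_iff.mp ha.2) b hb).symm)
    (fun x hx hxH => h.center_H hxH (fun y hy => ((mem_centralizer_iff.mp hx.2) y hy).symm))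
    (by
      intro x
      constructor
      · intro hx
        obtain ⟨i, hi⟩ := hconjW x hx
        obtain ⟨a, ha, b, hb, hab⟩ := (h.cent _).mp (mem_centralizer_singleton_iff.mpr (hback x i hi))
        refine ⟨d ^ (i : ℕ) * a, W.mul_mem (hdN _) (hVN ha), b, hb, ?_⟩
        calc x = d ^ (i : ℕ) * ((d ^ (i : ℕ))⁻¹ * x) := by group
          _ = d ^ (i : ℕ) * a * b := by rw [hab]; group
      · rintro ⟨a, ha, b, hb, rfl⟩
        refine mul_mem ha.1 ?_
        rw [mem_normalizer_iff]
        intro v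
        constructor
        · intro hv
          have h1 := h.comm v hv b hb
          have h2 : b * v * b⁻¹ = v := by rw [← h1]; group
          rw [h2]; exact hv
        · intro hv
          have h1 := h.comm _ hv b hb
          have h2 : b * v * b⁻¹ = v := by
            have h3 : b * v * b⁻¹ * b = b * (b * v * b⁻¹) := h1
            have h4 : b * v = b * (b * v * b⁻¹) := by
              calc b * v = b * v * b⁻¹ * b := by group
                _ = b * (b * v * b⁻¹) := h3
            exact (mul_left_cancel h4).symm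
          rw [h2] at hv; exact hv)
  exact ⟨e.trans (MulEquiv.prodCongr e1 e2)⟩

end Cfsg.Agent.H812.FourA5
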